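import Cfsg.Agent.CosetEnum.Suz.Order

/-!
The action of the presented Suzuki group on the cosets of its subgroup generated by a, …, f.
-/

set_option autoImplicit false

namespace CfsgLib.CosetEnum.Suz

theorem exists_coset_equiv :
    ∃ e : Cfsg.Spor.Suz ⧸ sub 6 ≃ Fin Tab.perm.n, ∀ (a : Cfsg.Spor.Suz) (q : Cfsg.Spor.Suz ⧸ sub 6),
      e (a • q) = pi a (e q) := by
  have hfix : ∀ a ∈ sub 6, pi a P0 = P0 := fun a ha =>
    (mem_pointStab.1 (six_le (cl_six ▸ Subgroup.mem_map_of_mem pi ha))).2 P0 List.mem_cons_self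
  obtain ⟨e, -, he⟩ := exists_equiv G24.facts G24.n_pos G24.node_zero G24.rows perm_ok (sub 6)
    (gl 7) (gl_inv 7) ((closure_gl 7).trans sub_seven)
    (hyps wordsOK_G24 (by omega) (by omega)).1 (hyps wordsOK_G24 (by omega) (by omega)).2 pi
    (fun x hx => by rw [gl, letterVal_lt gen (show x < 7 from hx)]; exact pi_gen hx) hfix
  exact ⟨e, he⟩

/-- A point with a given label gives an orbit of the counted size on the cosets. -/
theorem exists_coset_orbit (i : Fin Tab.perm.n) {c k : ℕ} (hi : Tab.labSix i = c)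
    (hk : countLabel Tab.labSix c 1782 = k) :
    ∃ q : Cfsg.Spor.Suz ⧸ sub 6, (MulAction.orbit (sub 6) q).ncard = k := by
  obtain ⟨e, he⟩ := exists_coset_equiv
  refine ⟨e.symm i, ?_⟩
  rw [← ncard_orbit_six hi hk, ← Set.ncard_image_of_injective _ e.injective]
  refine congrArg Set.ncard (Set.ext fun j => ?_)
  rw [cl_six]
  constructor
  · rintro ⟨_, ⟨⟨a, ha⟩, rfl⟩, rfl⟩
    exact ⟨⟨pi a, Subgroup.mem_map_of_mem pi ha⟩,
      ((he a (e.symm i)).trans (by rw [Equiv.apply_symm_apply]; rfl)).symm⟩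
  · rintro ⟨⟨_, a, ha, rfl⟩, rfl⟩
    exact ⟨_, ⟨⟨a, ha⟩, rfl⟩, (he a (e.symm i)).trans (by rw [Equiv.apply_symm_apply]; rfl)⟩

end CfsgLib.CosetEnum.Suz
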