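import Cfsg.Agent.CosetEnum.Suz.Simple

/-!
The subgroup on the first six generators: any group with six elements satisfying the relations
in these letters has a bounded order, so such elements define a homomorphism, injective unless
trivial because the subgroup is simple.
-/

set_option autoImplicit false

namespace CfsgLib.CosetEnum.Suz

/-- six elements satisfying the relators in the first six letters -/
structure SixRels {Q : Type*} [Group Q] (v : ℕ → Q) : Prop where
  rel : ∀ w ∈ Tab.relWords, (∀ x ∈ w, x < 6) → gword v w = 1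

variable {Q : Type*} [Group Q] {v : ℕ → Q}

theorem SixRels.sq (h : SixRels v) {x : ℕ} (hx : x < 6) : v x * v x = 1 := by
  have hm : [x, x] ∈ Tab.relWords :=
    List.contains_iff_mem.1 (by interval_cases x <;> decide)
  simpa [gword] using h.rel [x, x] hm (by simpa using hx)

/-- the subgroup generated by the first `m` elements -/
def vsub (v : ℕ → Q) (m : ℕ) : Subgroup Q := Subgroup.closure {z | ∃ x < m, v x = z}

theorem vsub_mono (v : ℕ → Q) {m m' : ℕ} (h : m ≤ m') : vsub v m ≤ vsub v m' :=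
  Subgroup.closure_mono fun _ ⟨x, hx, e⟩ => ⟨x, lt_of_lt_of_le hx h, e⟩

theorem SixRels.relIndex_cert (h : SixRels v) {C : CertData} {m m' : ℕ}
    (hw : wordsOK C m m' = true) (hm : m ≤ 6) (hm' : m' ≤ m) {N : ℕ}
    (hf : FactsChecked C.ep C.iv C.words C.nr N) (hn : 0 < C.n) (h0 : C.node 0 = 0)
    (hrows : ∀ i < C.n, checkRow C.ep C.iv N C.L C.node C.T C.tf C.n i = true)
    (hL : C.L = m) (hiv : C.iv = fun y => y) :
    (vsub v m').relIndex (vsub v m) ≤ C.n ∧ (vsub v m').relIndex (vsub v m) ≠ 0 := by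
  let g : ℕ → Q := letterVal m v
  have hg : ∀ x, g (C.iv x) = (g x)⁻¹ := fun x => by
    rw [hiv]
    exact letterVal_inv m v (fun y => y)
      (fun y hy => ⟨hy, (inv_eq_of_mul_eq_one_right (h.sq (lt_of_lt_of_le hy hm))).symm⟩)
      (fun _ hy => hy) x
  simp only [wordsOK, Bool.and_eq_true, List.all_eq_true, Nat.blt, Nat.ble_eq] at hw
  obtain ⟨⟨h1, h2⟩, h3⟩ := hw
  have hrel : ∀ (k : ℕ) (w : List ℕ), C.words[k]? = some w → k < C.nr → gword g w = 1 := by
    intro k w hk hlt
    have hwm : w ∈ C.words.take C.nr :=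
      List.mem_of_getElem? (i := k) (by rw [List.getElem?_take, if_pos hlt, hk])
    have hlt' : ∀ x ∈ w, x < m := fun x hx => h2 w hwm x hx
    rw [gword_letterVal v hlt']
    have hcase := List.all_eq_true.1 h1 w hwm
    rw [Bool.or_eq_true, List.contains_iff_mem, List.contains_iff_mem] at hcase
    rcases hcase with hcase | hcase
    · exact h.rel w hcase fun x hx => lt_of_lt_of_le (hlt' x hx) hm
    · have hr := h.rel _ hcase fun x hx => lt_of_lt_of_le (hlt' x (by simpa using hx)) hm
      rw [← gword_letterVal v (w := w.reverse.map fun y => y)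
        (fun x hx => hlt' x (by simpa using hx))] at hr
      have e := gword_inverse g C.iv hg w
      rw [hiv] at e
      rw [← gword_letterVal v hlt']
      exact inv_eq_one.1 (e.symm.trans hr)
  have hsub : ∀ (k : ℕ) (w : List ℕ), C.words[k]? = some w → gword g w ∈ vsub v m' := by
    intro k w hk
    by_cases hlt : k < C.nr
    · rw [hrel k w hk hlt]; exact one_mem _
    · have hwm : w ∈ C.words.drop C.nr :=
        List.mem_of_getElem? (i := k - C.nr)
          (by rw [List.getElem?_drop, show C.nr + (k - C.nr) = k by omega, hk])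
      refine gword_mem _ _ fun x hx => ?_
      have hxm : x < m' := h3 w hwm x hx
      rw [show g x = v x from letterVal_lt v (lt_of_lt_of_le hxm hm')]
      exact Subgroup.subset_closure ⟨x, hxm, rfl⟩
  have hr := relIndex_le hf hn h0 hrows (vsub v m') g hg hrel hsub
  rw [show Subgroup.closure {z | ∃ x < C.L, g x = z} = vsub v m by
    rw [hL]
    refine congrArg Subgroup.closure (Set.ext fun z => ?_)
    constructor <;> rintro ⟨x, hx, rfl⟩ <;>
      exact ⟨x, hx, by rw [show g x = v x from letterVal_lt v hx]⟩] at hr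
  exact hr

theorem vcard_step {m m' b c n : ℕ} (hm' : m' ≤ m)
    (h : Nat.card (vsub v m') ≤ b ∧ Nat.card (vsub v m') ≠ 0)
    (hr : (vsub v m').relIndex (vsub v m) ≤ n ∧ (vsub v m').relIndex (vsub v m) ≠ 0)
    (hc : n * b = c) : Nat.card (vsub v m) ≤ c ∧ Nat.card (vsub v m) ≠ 0 := by
  have := Subgroup.relIndex_mul_relIndex ⊥ (vsub v m') (vsub v m) bot_le (vsub_mono v hm')
  rw [Subgroup.relIndex_bot_left, Subgroup.relIndex_bot_left] at this
  rw [← this, ← hc]
  exact ⟨(Nat.mul_le_mul h.1 hr.1).trans (le_of_eq (Nat.mul_comm _ _)), Nat.mul_ne_zero h.2 hr.2⟩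

theorem SixRels.card_le (h : SixRels v) :
    Nat.card (vsub v 6) ≤ 251596800 ∧ Nat.card (vsub v 6) ≠ 0 := by
  have h1 : Nat.card (vsub v 1) ≤ 2 ∧ Nat.card (vsub v 1) ≠ 0 := by
    have : vsub v 1 = Subgroup.zpowers (v 0) := by
      rw [Subgroup.zpowers_eq_closure, vsub]
      exact congrArg Subgroup.closure (Set.ext fun z =>
        ⟨fun ⟨x, hx, e⟩ => by rw [Nat.lt_one_iff.1 hx] at e; exact e.symm,
          fun e => ⟨0, Nat.one_pos, e.symm⟩⟩)
    rw [this, Nat.card_zpowers]
    have hd : orderOf (v 0) ∣ 2 := orderOf_dvd_of_pow_eq_one (by rw [pow_two, h.sq (by omega)])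
    exact ⟨Nat.le_of_dvd (by norm_num) hd, fun h0 => by rw [h0] at hd; norm_num at hd⟩
  have h4 : Nat.card (vsub v 4) ≤ 2160 ∧ Nat.card (vsub v 4) ≠ 0 :=
    vcard_step (by omega) h1 (n_C2 ▸ h.relIndex_cert wordsOK_C2 (by omega) (by omega) C2.facts
      C2.n_pos C2.node_zero C2.rows rfl rfl) (by norm_num)
  have h5 : Nat.card (vsub v 5) ≤ 604800 ∧ Nat.card (vsub v 5) ≠ 0 :=
    vcard_step (by omega) h4 (n_PGL29 ▸ h.relIndex_cert wordsOK_PGL29 (by omega) (by omega)
      PGL29.facts PGL29.n_pos PGL29.node_zero PGL29.rows rfl rfl) (by norm_num)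
  exact vcard_step (by omega) h5 (n_J2 ▸ h.relIndex_cert wordsOK_J2 (by omega) (by omega)
    J2.facts J2.n_pos J2.node_zero J2.rows rfl rfl) (by norm_num)

theorem sixRels_gen : SixRels (gen : ℕ → Cfsg.Spor.Suz) := ⟨fun w hw hx => by
  rw [← gword_relWords w hw, gl, gword_letterVal gen fun x h => Nat.lt_succ_of_lt (hx x h)]⟩

/-- the first six generators inside their subgroup -/
noncomputable def gen6 (x : ℕ) : sub 6 :=
  if h : x < 6 then ⟨gen x, Subgroup.subset_closure ⟨x, h, rfl⟩⟩ else 1

theorem gen6_val {x : ℕ} (hx : x < 6) : ((gen6 x : sub 6) : Cfsg.Spor.Suz) = gen x := by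
  rw [gen6, dif_pos hx]

theorem sixRels_gen6 : SixRels gen6 := ⟨fun w hw hx => (sub 6).subtype_injective (by
  rw [map_one, gword_map, ← sixRels_gen.rel w hw hx]
  exact gword_congr _ _ fun x hxw => gen6_val (hx x hxw))⟩

theorem vsub_gen6 : vsub gen6 6 = ⊤ := by
  refine Subgroup.map_injective (sub 6).subtype_injective ?_
  rw [vsub, MonoidHom.map_closure, ← MonoidHom.range_eq_map, Subgroup.range_subtype]
  show _ = Subgroup.closure {z | ∃ x < 6, gen x = z}
  refine congrArg Subgroup.closure (Set.ext fun z => ?_)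
  constructor
  · rintro ⟨_, ⟨x, hx, rfl⟩, rfl⟩
    exact ⟨x, hx, (gen6_val hx).symm⟩
  · rintro ⟨x, hx, rfl⟩
    exact ⟨gen6 x, ⟨x, hx, rfl⟩, gen6_val hx⟩

/-- The subgroup on the first six generators is simple. -/
theorem simple_six : IsSimpleGroup (sub 6) := by
  have := finite_sub 6
  have hnt : Nontrivial (sub 6) := by
    rw [← Finite.one_lt_card_iff_nontrivial, card_sub_six_eq]; norm_num
  refine { eq_bot_or_eq_top_of_normal := fun N hN => ?_ }
  by_cases hne : N = ⊥
  · exact Or.inl hne
  refine Or.inr ?_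
  let π : sub 6 →* Equiv.Perm (Fin Tab.perm.n) := pi.comp (sub 6).subtype
  have hπ : Function.Injective π := pi_injective.comp Subtype.val_injective
  have hrange : π.range = cl Tab.wordsSix := by
    rw [cl_six, MonoidHom.range_comp, Subgroup.range_subtype]
  have hd : 100 ∣ Nat.card (N.map π) := by
    refine dvd_of_normalized (hrange ▸ Subgroup.map_le_range π N) ?_
      ((Subgroup.map_eq_bot_iff_of_injective _ hπ).not.2 hne)
    rw [← hrange]
    rintro _ ⟨a, rfl⟩ _ ⟨k, hk, rfl⟩
    exact ⟨a * k * a⁻¹, hN.conj_mem k hk a, by simp⟩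
  rw [← Nat.card_congr (Subgroup.equivMapOfInjective N π hπ).toEquiv] at hd
  have h5 : ¬ 5 ∣ Nat.card (sub 6 ⧸ N) := by
    rintro ⟨d, hd5⟩
    obtain ⟨c, hc⟩ := hd
    have hprod := N.card_mul_index
    rw [hc, Subgroup.index, hd5, card_sub_six_eq] at hprod
    have : 500 * (c * d) = 251596800 := by rw [← hprod]; ring
    omega
  let u : ℕ → sub 6 ⧸ N := fun x => QuotientGroup.mk' N (gen6 x)
  have hu : ∀ w ∈ Tab.relWords, (∀ x ∈ w, x < 6) → gword u w = 1 := by
    intro w hw hx
    rw [← map_one (QuotientGroup.mk' N), ← sixRels_gen6.rel w hw hx, gword_map]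
  have hab := ab_trivial u h5 (by rw [← map_mul, sixRels_gen6.sq (by omega), map_one])
    (hu _ (List.contains_iff_mem.1 (by decide)) (by decide))
  have hall := gens_trivial u hu (le_refl 6) (by omega) hab
  rw [eq_top_iff, ← vsub_gen6, vsub, Subgroup.closure_le]
  rintro _ ⟨x, hx, rfl⟩
  exact (QuotientGroup.eq_one_iff _).1 (hall x hx)

/-- Six elements satisfying the relations are the images of the generators. -/
theorem exists_hom (h : SixRels v) : ∃ φ : sub 6 →* Q, ∀ x < 6, φ (gen6 x) = v x := by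
  classical
  let p : ℕ → sub 6 × Q := fun x => (gen6 x, v x)
  have hp : SixRels p := ⟨fun w hw hx => by
    refine Prod.ext ?_ ?_
    · show MonoidHom.fst _ _ (gword p w) = 1
      rw [gword_map]
      exact sixRels_gen6.rel w hw hx
    · show MonoidHom.snd _ _ (gword p w) = 1
      rw [gword_map]
      exact h.rel w hw hx⟩
  let Γ := vsub p 6
  have : Finite Γ := Nat.finite_of_card_ne_zero hp.card_le.2
  let f : Γ →* sub 6 := (MonoidHom.fst _ _).comp Γ.subtype
  have hsurj : Function.Surjective f := by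
    rw [← MonoidHom.range_eq_top, MonoidHom.range_comp, Subgroup.range_subtype,
      show Γ = Subgroup.closure {z | ∃ x < 6, p x = z} from rfl, MonoidHom.map_closure, ← vsub_gen6]
    refine congrArg Subgroup.closure (Set.ext fun z => ?_)
    constructor
    · rintro ⟨_, ⟨x, hx, rfl⟩, rfl⟩
      exact ⟨x, hx, rfl⟩
    · rintro ⟨x, hx, rfl⟩
      exact ⟨p x, ⟨x, hx, rfl⟩, rfl⟩
  have hbij : Function.Bijective f := by
    refine (Nat.bijective_iff_surjective_and_card _).2 ⟨hsurj, le_antisymm ?_ ?_⟩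
    · rw [card_sub_six_eq]; exact hp.card_le.1
    · exact Nat.card_le_card_of_surjective f hsurj
  let e := MulEquiv.ofBijective f hbij
  refine ⟨((MonoidHom.snd _ _).comp Γ.subtype).comp e.symm.toMonoidHom, fun x hx => ?_⟩
  have hmem : p x ∈ Γ := Subgroup.subset_closure ⟨x, hx, rfl⟩
  have he : e.symm (gen6 x) = ⟨p x, hmem⟩ := e.symm_apply_eq.2 rfl
  show ((e.symm (gen6 x) : Γ) : sub 6 × Q).2 = v x
  rw [he]

/-- Six nontrivial elements satisfying the relations in a group of order 251596800 generate it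
and give an isomorphism. -/
theorem nonempty_iso [Finite Q] (h : SixRels v) (h0 : v 0 ≠ 1)
    (hcard : Nat.card Q = 251596800) : Nonempty (sub 6 ≃* Q) := by
  obtain ⟨φ, hφ⟩ := exists_hom h
  have := simple_six
  have hinj : Function.Injective φ := by
    rw [← MonoidHom.ker_eq_bot_iff]
    refine (IsSimpleGroup.eq_bot_or_eq_top_of_normal _ inferInstance).resolve_right fun htop => h0 ?_
    rw [← hφ 0 (by omega)]
    exact MonoidHom.mem_ker.1 (htop ▸ Subgroup.mem_top _)
  exact ⟨MulEquiv.ofBijective φ ((Nat.bijective_iff_injective_and_card _).2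
    ⟨hinj, by rw [card_sub_six_eq, hcard]⟩)⟩

end CfsgLib.CosetEnum.Suz
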